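import Cfsg.Agent.Lib.HallJanko.Simple

/-! # Minimal vectors, reflections, and the order of the reflection group -/

set_option autoImplicit false
set_option maxRecDepth 100000

namespace Cfsg.Agent.Lib.HallJanko

open Cfsg.Spor Quaternion

theorem units_nodup : ((List.range 120).map unitAt).Nodup := by decide +kernel

theorem units_complete :
    (cand.all fun p => !decide (p.nrm = (4, 0)) ||
      (List.range 120).any fun k => decide (unitAt k = p)) = true := by decide +kernel

/-- The units of the icosian ring. -/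
def unitSet : Set ℍ[ℝ] := {c | c ∈ icosians ∧ star c * c = 1}

theorem unitSet_eq : unitSet = (fun k : Fin 120 => ev (unitAt k)) '' Set.univ := by
  ext c
  constructor
  · rintro ⟨hc, hc1⟩
    obtain ⟨p, hp, rfl⟩ := exists_ev hc
    have hn : p.nrm = (4, 0) := by
      apply rv_injective
      have h := ev_mul_star p
      rw [Quaternion.self_mul_star, ← Quaternion.star_mul_self, hc1] at h
      have := congrArg QuaternionAlgebra.re h
      simp only [Quaternion.re_one, Quaternion.re_coe] at this
      simp [rv] at this ⊢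
      linarith
    have hmem : p ∈ cand := by
      refine mem_cand hp (rest := (12, 0)) (by rw [hn]; rfl) ⟨?_, ?_⟩ <;> norm_num [rv]
    have h := List.all_eq_true.1 units_complete p hmem
    simp only [hn, decide_true, Bool.not_true, Bool.false_or, List.any_eq_true, decide_eq_true_eq,
      List.mem_range] at h
    obtain ⟨k, hk, hkp⟩ := h
    exact ⟨⟨k, hk⟩, trivial, by simp [hkp]⟩
  · rintro ⟨k, -, rfl⟩
    obtain ⟨hu, -, hu2⟩ := unit_spec k.2
    exact ⟨ev_mem hu, hu2⟩

theorem card_unitSet : unitSet.ncard = 120 := by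
  rw [unitSet_eq, Set.ncard_image_of_injective _ ?_, Set.ncard_univ, Nat.card_fin]
  intro a b h
  have h' := ev_injective h
  have := List.nodup_iff_injective_getElem.1 units_nodup
    (a₁ := ⟨a, by simp⟩) (a₂ := ⟨b, by simp⟩) (by simpa using h')
  exact Fin.ext (by simpa using this)

theorem qip_scal_self {c : ℍ[ℝ]} (hc : c * star c = 1) {x : QV} (hx : qip x x = 4) :
    qip (scal c x) (scal c x) = 4 := by
  rw [qip_scal, hx, ← (Nat.cast_ofNat : ((4 : ℕ) : ℍ[ℝ]) = 4), (Nat.cast_commute 4 c).eq.symm,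
    mul_assoc, hc, mul_one]

theorem mul_star_of_star_mul {c : ℍ[ℝ]} (hc : star c * c = 1) : c * star c = 1 := by
  rw [Quaternion.self_mul_star, ← Quaternion.star_mul_self, hc]

theorem line_ne_zero {i : ℕ} (hi : i < 315) : ∃ t, line i t ≠ 0 := by
  by_contra h
  push Not at h
  have h4 := qip_line hi
  rw [show line i = 0 from funext h] at h4
  have := congrArg QuaternionAlgebra.re h4
  simp [qip] at this
  have e : (4 : ℍ[ℝ]).re = 4 := rfl
  rw [e] at this
  norm_num at this

theorem scal_cancel {c d : ℍ[ℝ]} {i : ℕ} (hi : i < 315) (h : scal c (line i) = scal d (line i)) :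
    c = d := by
  obtain ⟨t, ht⟩ := line_ne_zero hi
  exact mul_right_cancel₀ ht (congrFun h t)

theorem minimal_eq : {r : Fin 3 → ℍ[ℝ] | r ∈ icoLeech ∧ qip r r = 4} =
    (fun z : Fin 315 × ℍ[ℝ] => scal z.2 (line z.1)) '' (Set.univ ×ˢ unitSet) := by
  ext v
  constructor
  · rintro ⟨hv, hn⟩
    obtain ⟨i, hi, c, hc, hc1, rfl⟩ := exists_line hv hn
    exact ⟨(⟨i, hi⟩, c), ⟨trivial, hc, hc1⟩, rfl⟩
  · rintro ⟨⟨i, c⟩, ⟨-, hc, hc1⟩, rfl⟩
    exact ⟨scal_mem (line_spec i i.2).1 hc, qip_scal_self (mul_star_of_star_mul hc1) (qip_line i.2)⟩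

theorem ncard_minimal : {r : Fin 3 → ℍ[ℝ] | r ∈ icoLeech ∧ qip r r = 4}.ncard = 37800 := by
  rw [minimal_eq, Set.InjOn.ncard_image ?_, Set.ncard_prod, Set.ncard_univ, card_unitSet,
    Nat.card_fin]
  rintro ⟨i, c⟩ ⟨-, -, hc1⟩ ⟨j, d⟩ ⟨-, -, hd1⟩ h
  have hd' := mul_star_of_star_mul hd1
  have hij : i = j := by
    refine Fin.ext (line_inj i.2 j.2 (c := star d * c) ?_ ?_)
    · rw [star_mul, star_star, mul_assoc, ← mul_assoc d, hd', one_mul, hc1]
    · rw [← scal_scal, show scal c (line i) = scal d (line j) from h, scal_scal, hd1, scal_one]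
  subst hij
  exact Prod.ext rfl (scal_cancel i.2 h)

/-- The reflection in a line, as a permutation of the lattice. -/
noncomputable def lineRefl (i : Fin 315) : Equiv.Perm icoLeech := (line_spec i i.2).2.choose

theorem lineRefl_apply (i : Fin 315) (x : icoLeech) : (lineRefl i x : QV) = qrefl (line i) x :=
  (line_spec i i.2).2.choose_spec.2 x

theorem lineRefl_mem (i : Fin 315) : lineRefl i ∈ twoJ2 :=
  twoJ2_eq ▸ (line_spec i i.2).2.choose_spec.1

theorem isIcoReflection_iff (f : Equiv.Perm icoLeech) :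
    IsIcoReflection f ↔ ∃ i, f = lineRefl i := by
  constructor
  · rintro ⟨r, hr, hf⟩
    obtain ⟨i, hi, c, -, hc, hce⟩ := exists_line r.2 hr
    exact ⟨⟨i, hi⟩, Equiv.ext fun x => Subtype.ext (by rw [hf, lineRefl_apply, hce, qrefl_scal hc])⟩
  · rintro ⟨i, rfl⟩
    exact ⟨⟨line i, (line_spec i i.2).1⟩, qip_line i.2, lineRefl_apply i⟩

theorem lineRefl_injective : Function.Injective lineRefl := by
  intro i j h
  have e := lineRefl_apply i ⟨line i, (line_spec i i.2).1⟩
  rw [h, lineRefl_apply] at e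
  simp only [qrefl_self (qip_line i.2)] at e
  set c := (1 / 4 : ℝ) • qip (line i) (line j) with hcdef
  have hy : line i = scal c (line j) := by
    funext t
    have e' := congrFun e t
    simp only [qrefl, Pi.neg_apply, smul_mul_assoc] at e'
    rw [scal_apply, hcdef, smul_mul_assoc]
    linear_combination (norm := module) (1 / 2 : ℝ) • e'
  have hcc : star c * c = 1 := by
    have h4 := congrArg (fun v => qip v v) hy
    simp only [qip_scal, qip_line i.2, qip_line j.2] at h4
    rw [← (Nat.cast_ofNat : ((4 : ℕ) : ℍ[ℝ]) = 4), (Nat.cast_commute 4 c).eq.symm, mul_assoc] at h4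
    have h' : (1 : ℍ[ℝ]) = c * star c := by
      refine mul_left_cancel₀ (a := ((4 : ℕ) : ℍ[ℝ])) (fun h => ?_) (by rw [mul_one]; exact h4)
      have := congrArg QuaternionAlgebra.re h
      rw [Quaternion.re_natCast] at this
      norm_num at this
    rw [Quaternion.star_mul_self, ← Quaternion.self_mul_star, ← h']
  exact (Fin.ext (line_inj j.2 i.2 hcc hy)).symm

theorem ncard_reflections : {f : Equiv.Perm icoLeech | IsIcoReflection f}.ncard = 315 := by
  have : {f : Equiv.Perm icoLeech | IsIcoReflection f} = Set.range lineRefl := by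
    ext f; simp [isIcoReflection_iff, eq_comm]
  rw [this, ← Set.image_univ, Set.ncard_image_of_injective _ lineRefl_injective, Set.ncard_univ,
    Nat.card_fin]

theorem reflections_conj (i j : Fin 315) : ∃ g ∈ twoJ2, g * lineRefl i * g⁻¹ = lineRefl j := by
  obtain ⟨τ, hτ, h1⟩ := G315_to_root _ i rfl
  obtain ⟨τ', hτ', h2⟩ := G315_to_root _ j rfl
  have hσ : τ'⁻¹ * τ ∈ G315 := mul_mem (inv_mem hτ') hτ
  rw [← phi_range] at hσ
  obtain ⟨g, hg⟩ := hσ
  have hj : phi g i = j := by
    rw [hg, Equiv.Perm.mul_apply, h1, ← h2, Equiv.Perm.inv_def, Equiv.symm_apply_apply]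
  have := phi_conj_line (lineRefl_mem i) (lineRefl_apply i) g (lineRefl_mem j)
    (fun x => by rw [hj]; exact lineRefl_apply j x)
  exact ⟨g, g.2, congrArg Subtype.val this⟩

/-- The product of the reflections in three orthogonal coordinate lines. -/
noncomputable def negOne : twoJ2 :=
  ⟨lineRefl ⟨314, by norm_num⟩ * lineRefl ⟨9, by norm_num⟩ * lineRefl ⟨0, by norm_num⟩,
    mul_mem (mul_mem (lineRefl_mem _) (lineRefl_mem _)) (lineRefl_mem _)⟩

theorem negOne_apply (x : icoLeech) : ((negOne.1 x : icoLeech) : QV) = -(x : QV) := by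
  obtain ⟨⟨f0, f1, f1', f2, f2', g1, g2, -⟩, -⟩ := frame_check
  have h314 : qip (line 314) (line 314) = 4 := qip_line (by norm_num)
  set p := ev (lineAt 314).1 with hp
  have e314 : line 314 = ![p, 0, 0] := by
    funext t; fin_cases t <;> simp [line, evV, f0, ev_zero, hp]
  have e9 : line 9 = ![0, p, 0] := by
    funext t; fin_cases t <;> simp [line, evV, f1, f1', ev_zero, hp, g1]
  have e0 : line 0 = ![0, 0, p] := by
    funext t; fin_cases t <;> simp [line, evV, f2, f2', ev_zero, hp, g2]
  have hpp : star p * p = 4 := by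
    rw [e314] at h314
    simp [qip, Fin.sum_univ_three] at h314
    rw [Quaternion.star_mul_self, ← Quaternion.self_mul_star]; exact h314
  have key : ∀ a : ℍ[ℝ], a - ((1 / 2 : ℝ) • (a * star p)) * p = -a := fun a => by
    rw [smul_mul_assoc, mul_assoc, hpp, show (4 : ℍ[ℝ]) = ((4 : ℝ) : ℍ[ℝ]) from rfl,
      Quaternion.mul_coe_eq_smul, smul_smul]
    module
  simp only [negOne, Equiv.Perm.mul_apply, lineRefl_apply, e314, e9, e0]
  funext t
  fin_cases t <;> simp [qrefl, qip, Fin.sum_univ_three] <;> simpa using key _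

theorem negOne_mem_center : negOne ∈ Subgroup.center twoJ2 := by
  rw [Subgroup.mem_center_iff]
  intro g
  obtain ⟨A, hA, hgA, -⟩ := ext_phi g
  refine Subtype.ext (Equiv.ext fun x => Subtype.ext ?_)
  have hneg : ∀ y : QV, A (-y) = -A y := fun y => by
    have := hA.lin (-1) y
    convert this using 1 <;> first | (funext t; simp) | (congr 1; funext t; simp)
  simp only [Subgroup.coe_mul, Equiv.Perm.mul_apply, hgA, negOne_apply, hneg]

theorem negOne_ne_one : negOne ≠ 1 := by
  intro h
  obtain ⟨t, ht⟩ := line_ne_zero (i := 0) (by norm_num)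
  have e := negOne_apply ⟨line 0, (line_spec 0 (by norm_num)).1⟩
  rw [h] at e
  have e' := congrFun e t
  simp only [OneMemClass.coe_one, Equiv.Perm.one_apply, Pi.neg_apply] at e'
  apply ht
  have : (2 : ℝ) • line 0 t = 0 := by linear_combination (norm := module) e'
  simpa using this

theorem center_two (z : twoJ2) (hz : z ∈ Subgroup.center twoJ2) : z = 1 ∨ z = negOne := by
  rw [center_eq_ker, MonoidHom.mem_ker] at hz
  obtain ⟨A, hA, hzA, hAl⟩ := ext_phi z
  obtain ⟨s, hs⟩ := scalar_of_fixed hA fun i hi => by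
    obtain ⟨u, -, hu⟩ := hAl ⟨i, hi⟩
    exact ⟨u, by simpa [hz] using hu⟩
  have hline : qip (line 0) (line 0) = 4 := qip_line (by norm_num)
  have h4 := hA.inner (line 0) (line 0)
  rw [hs, qip_scal, hline] at h4
  have h5 := congrArg QuaternionAlgebra.re h4
  have e4 : (4 : ℍ[ℝ]) = ((4 : ℝ) : ℍ[ℝ]) := rfl
  rw [e4, Quaternion.star_coe, ← Quaternion.coe_mul, ← Quaternion.coe_mul] at h5
  simp only [Quaternion.re_coe] at h5
  rcases mul_self_eq_one_iff.1 (by linarith : s * s = 1) with rfl | rfl
  · left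
    refine Subtype.ext (Equiv.ext fun x => Subtype.ext ?_)
    simp [hzA, hs, scal_one]
  · right
    refine Subtype.ext (Equiv.ext fun x => Subtype.ext ?_)
    rw [hzA, negOne_apply, hs]
    funext t; simp

theorem center_eq_pair : (Subgroup.center twoJ2 : Set twoJ2) = {1, negOne} := by
  ext z
  refine ⟨center_two z, ?_⟩
  rintro (rfl | rfl)
  · exact one_mem _
  · exact negOne_mem_center

theorem card_center : Nat.card (Subgroup.center twoJ2) = 2 := by
  have := congrArg Set.ncard center_eq_pair
  rw [Set.ncard_pair negOne_ne_one.symm, ← Nat.card_coe_set_eq] at this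
  exact this

theorem card_twoJ2 : Nat.card twoJ2 = 1209600 := by
  rw [Subgroup.card_eq_card_quotient_mul_card_subgroup (Subgroup.center twoJ2), card_center]
  rw [show Nat.card (twoJ2 ⧸ Subgroup.center twoJ2) = 604800 from card_J2]

end Cfsg.Agent.Lib.HallJanko
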