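import Cfsg.Agent.Lib.HallJanko.Hundred
import Cfsg.Agent.Lib.SchurMult.CyclicBound

/-! # The double cover `2·J₂` is a stem extension of `J₂` -/

set_option autoImplicit false
set_option maxRecDepth 100000

namespace Cfsg.Agent.Lib.HallJanko

open Cfsg.Spor Quaternion

theorem qrefl_gen_line' {k i : ℕ} (hk : k < 4) (hi : i < 315) :
    genImage k i < 315 ∧
      qrefl (gLine k) (line i) = scal (ev (unitAt (genUnit k i))) (line (genImage k i)) := by
  have := List.all_eq_true.1 (List.all_eq_true.1 gen_check k (List.mem_range.2 hk)) i (List.mem_range.2 hi)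
  simp only [Bool.and_eq_true, decide_eq_true_eq] at this
  obtain ⟨⟨⟨h1, h2⟩, -⟩, h4⟩ := this
  refine ⟨h1, ?_⟩
  have h4 := congrArg evV h4
  rw [show mapV (fun s => ((unitAt (genUnit k i)).prod s).smul 4) (lineAt (genImage k i))
    = mapV (IQ.smul 4) (mapV (fun s => (unitAt (genUnit k i)).prod s) (lineAt (genImage k i))) from rfl,
    evV_refl8, evV_smul, evV_prod, smul_smul] at h4
  norm_num at h4
  exact h4

/-- The word of the central element with the units accumulated along it. -/
def centTrack : List (ℕ × ℕ) :=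
  [(0, 0), (1, 37), (0, 24), (1, 49), (2, 4), (3, 4), (0, 10), (1, 14), (0, 102), (1, 24), (2, 43),
    (3, 42), (0, 87), (1, 21), (0, 23), (1, 23), (2, 21), (3, 20), (0, 20), (1, 96), (0, 23), (1, 110),
    (2, 47), (3, 68), (0, 2), (1, 79), (0, 46), (1, 59), (2, 118), (3, 28), (0, 90), (1, 33), (0, 93),
    (1, 27), (2, 56), (3, 30)]

/-- The image of a line index under a word of generator numbers. -/
def posAfter : List ℕ → ℕ → ℕ
  | [], i => i
  | k :: w, i => genImage k (posAfter w i)

/-- The unit accumulated so far. -/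
def lastUnit : List (ℕ × ℕ) → ℕ
  | [] => 119
  | e :: _ => e.2

/-- The unit computation along a word is right. -/
def trackOK : List (ℕ × ℕ) → Bool
  | [] => true
  | e :: r => trackOK r && decide (e.1 < 4) &&
      decide ((unitAt (lastUnit r)).prod (unitAt (genUnit e.1 (posAfter (r.map Prod.fst) 0))) = (unitAt e.2).smul 2)

theorem track_check :
    trackOK centTrack = true ∧ unitAt 119 = IQ.one ∧ unitAt (lastUnit centTrack) = IQ.one.neg ∧
      ((List.range 315).all fun i => posAfter (centTrack.map Prod.fst) i == i) = true ∧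
      centTrack.map Prod.fst = (centTrack.map Prod.fst).take 18 ++ (centTrack.map Prod.fst).take 18 := by
  refine ⟨?_, ?_, ?_, ?_, ?_⟩ <;> decide +kernel

/-- A generator of the reflection group by number. -/
noncomputable def genN (k : ℕ) : twoJ2 :=
  if h : k < 4 then ⟨genRefl ⟨k, h⟩, Subgroup.subset_closure (genRefl_mem _)⟩ else 1

theorem phi_prod (w : List ℕ) (hw : ∀ k ∈ w, k < 4) (i : Fin 315) :
    ((phi (w.map genN).prod i : Fin 315) : ℕ) = posAfter w i := by
  induction w with
  | nil => simp [posAfter]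
  | cons k w ih =>
    have hk := hw k (List.mem_cons_self ..)
    have hp : phi (genN k) = genPerm ⟨k, hk⟩ := by
      rw [genN, dif_pos hk]; exact phi_genRefl ⟨k, hk⟩ _
    rw [List.map_cons, List.prod_cons, map_mul, Equiv.Perm.mul_apply, hp, genPerm_val, ih (fun q hq => hw q (List.mem_cons_of_mem _ hq))]
    rfl

theorem track_sound : ∀ (r : List (ℕ × ℕ)), trackOK r = true →
    posAfter (r.map Prod.fst) 0 < 315 ∧ ∃ A : QV → QV, IsIso A ∧
      (∀ x : icoLeech, ((((r.map Prod.fst).map genN).prod : twoJ2).1 x : QV) = A x) ∧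
      A (line 0) = scal (ev (unitAt (lastUnit r))) (line (posAfter (r.map Prod.fst) 0)) := by
  intro r
  induction r with
  | nil =>
    intro _
    refine ⟨by simp [posAfter], id, ⟨fun _ _ => rfl, fun _ _ => rfl, fun _ _ => rfl⟩, fun x => rfl, ?_⟩
    simp [lastUnit, posAfter, track_check.2.1, ev_one, scal_one]
  | cons e r ih =>
    intro h
    simp only [trackOK, Bool.and_eq_true, decide_eq_true_eq] at h
    obtain ⟨⟨hr, hk⟩, he⟩ := h
    obtain ⟨hlt, A, hA, hAx, hAl⟩ := ih hr
    obtain ⟨hlt', hq⟩ := qrefl_gen_line' hk hlt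
    refine ⟨hlt', qrefl (gLine e.1) ∘ A, ⟨fun x y => ?_, fun c x => ?_, fun x y => ?_⟩, fun x => ?_, ?_⟩
    · simp [hA.add, (isIso_qrefl (qip_gLine hk)).add]
    · simp [hA.lin, (isIso_qrefl (qip_gLine hk)).lin]
    · simp [hA.inner, (isIso_qrefl (qip_gLine hk)).inner]
    · simp only [List.map_cons, List.prod_cons, Subgroup.coe_mul, Equiv.Perm.mul_apply, genN, dif_pos hk,
        genRefl_apply, Function.comp_apply]
      rw [← hAx]
    · have hv := congrArg ev he
      rw [ev_prod, ev_smul] at hv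
      have hv' : ev (unitAt (lastUnit r)) * ev (unitAt (genUnit e.1 (posAfter (r.map Prod.fst) 0)))
          = ev (unitAt e.2) := smul_right_injective _ (two_ne_zero (α := ℝ)) (by simpa using hv)
      rw [Function.comp_apply, hAl, (isIso_qrefl (qip_gLine hk)).lin, hq, scal_scal, hv']
      rfl

/-- The central element `-1` of the reflection group. -/
noncomputable def negOneJ : twoJ2 := ((centTrack.map Prod.fst).map genN).prod

theorem negOneJ_mem_center : negOneJ ∈ Subgroup.center twoJ2 := by
  rw [center_eq_ker, MonoidHom.mem_ker]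
  refine Equiv.ext fun i => Fin.ext ?_
  have hw : ∀ k ∈ centTrack.map Prod.fst, k < 4 := by decide +kernel
  rw [negOneJ, phi_prod _ hw]
  exact beq_iff_eq.1 (List.all_eq_true.1 track_check.2.2.2.1 i (List.mem_range.2 i.2))

theorem negOneJ_line : ((negOneJ.1 ⟨line 0, (line_spec 0 (by norm_num)).1⟩ : icoLeech) : QV) = -line 0 := by
  obtain ⟨h1, -, h3, h4, -⟩ := track_check
  obtain ⟨-, A, -, hAx, hAl⟩ := track_sound centTrack h1
  rw [negOneJ, hAx, hAl, h3, ev_neg, ev_one,
    show posAfter (centTrack.map Prod.fst) 0 = 0 from beq_iff_eq.1 (List.all_eq_true.1 h4 0 (List.mem_range.2 (by norm_num)))]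
  funext t
  simp

theorem line_ne_zero' {i : ℕ} (hi : i < 315) : line i ≠ 0 := by
  intro h
  have := congrArg QuaternionAlgebra.re (qip_line hi)
  rw [h, show (4 : ℍ[ℝ]) = ((4 : ℝ) : ℍ[ℝ]) from rfl] at this
  simp [qip] at this

theorem negOneJ_ne_one : negOneJ ≠ 1 := by
  intro h
  have := negOneJ_line
  rw [h] at this
  have h2 : line 0 = -line 0 := this
  refine line_ne_zero' (i := 0) (by norm_num) (funext fun t => ?_)
  have := congrFun h2 t
  simp only [Pi.neg_apply, Pi.zero_apply] at this ⊢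
  have h3 : (2 : ℝ) • line 0 t = 0 := by rw [two_smul]; exact eq_neg_iff_add_eq_zero.1 this
  exact (smul_eq_zero.1 h3).resolve_left two_ne_zero

theorem square_mem_commutator (g : twoJ2) : g ^ 2 ∈ commutator twoJ2 := by
  have key : ∀ f (hf : f ∈ twoJ2), Abelianization.of (⟨f, hf⟩ : twoJ2) ^ 2 = 1 := by
    intro f hf
    induction hf using Subgroup.closure_induction with
    | mem y hy =>
      rw [← map_pow, show (⟨y, Subgroup.subset_closure hy⟩ : twoJ2) ^ 2 = 1 from ?_, map_one]
      refine Subtype.ext (Equiv.ext fun x => Subtype.ext ?_)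
      obtain ⟨r, hr, hf⟩ := hy
      simp only [pow_two, Subgroup.coe_mul, Subgroup.coe_one, Equiv.Perm.mul_apply, Equiv.Perm.one_apply, hf]
      exact qrefl_qrefl hr _
    | one => exact (congrArg (· ^ 2) (map_one Abelianization.of)).trans (one_pow 2)
    | mul a b ha hb iha ihb =>
      rw [show (⟨a * b, mul_mem ha hb⟩ : twoJ2) = ⟨a, ha⟩ * ⟨b, hb⟩ from rfl, map_mul, mul_pow, iha, ihb, one_mul]
    | inv a ha iha =>
      rw [show (⟨a⁻¹, inv_mem ha⟩ : twoJ2) = ⟨a, ha⟩⁻¹ from rfl, map_inv, inv_pow, iha, inv_one]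
  have := key g.1 g.2
  rw [Subtype.coe_eta, ← map_pow] at this
  rw [← Abelianization.ker_of, MonoidHom.mem_ker]
  exact this

theorem negOneJ_mem_commutator : negOneJ ∈ commutator twoJ2 := by
  have h := square_mem_commutator ((((centTrack.map Prod.fst).take 18).map genN).prod)
  rwa [pow_two, ← List.prod_append, ← List.map_append, ← track_check.2.2.2.2] at h

theorem center_two : ∀ z ∈ Subgroup.center twoJ2, z = 1 ∨ z = negOneJ := by
  have hs : ∀ z ∈ Subgroup.center twoJ2, ∃ s : ℝ, s ^ 2 = 1 ∧ ∀ x : icoLeech, (z.1 x : QV) = scal (s : ℍ[ℝ]) x := by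
    intro z hz
    rw [center_eq_ker, MonoidHom.mem_ker] at hz
    obtain ⟨A, hA, hzA, hAl⟩ := ext_phi z
    obtain ⟨s, hs⟩ := scalar_of_fixed hA fun i hi => by
      obtain ⟨u, -, hu⟩ := hAl ⟨i, hi⟩
      exact ⟨u, by simpa [hz] using hu⟩
    refine ⟨s, ?_, fun x => by rw [hzA, hs]⟩
    have := congrArg QuaternionAlgebra.re (hA.inner (line 0) (line 0))
    rw [hs, qip_scal_left, qip_scal_right, qip_line (by norm_num),
      show (4 : ℍ[ℝ]) = ((4 : ℝ) : ℍ[ℝ]) from rfl] at this
    simp at this
    nlinarith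
  intro z hz
  obtain ⟨s, hs2, hsz⟩ := hs z hz
  obtain ⟨t, ht2, htn⟩ := hs _ negOneJ_mem_center
  have htm : t ≠ 1 := by
    intro h
    refine negOneJ_ne_one (Subtype.ext (Equiv.ext fun x => Subtype.ext ?_))
    rw [htn, h]; simp [scal_one]
  have ht : t = -1 := by rcases sq_eq_one_iff.1 ht2 with h | h; exacts [absurd h htm, h]
  rcases sq_eq_one_iff.1 hs2 with rfl | rfl
  · left
    refine Subtype.ext (Equiv.ext fun x => Subtype.ext ?_)
    rw [hsz]; simp [scal_one]
  · right
    refine Subtype.ext (Equiv.ext fun x => Subtype.ext ?_)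
    rw [hsz, htn, ht]

theorem card_center : Nat.card (Subgroup.center twoJ2) = 2 :=
  Nat.card_eq_two_iff.2 ⟨⟨1, one_mem _⟩, ⟨negOneJ, negOneJ_mem_center⟩,
    fun h => negOneJ_ne_one (congrArg Subtype.val h).symm,
    Set.eq_univ_of_forall fun z => by
      rcases center_two z.1 z.2 with h | h
      · left; exact Subtype.ext h
      · right; exact Subtype.ext h⟩

theorem center_le_commutator : Subgroup.center twoJ2 ≤ commutator twoJ2 := fun z hz => by
  rcases center_two z hz with rfl | rfl
  exacts [one_mem _, negOneJ_mem_commutator]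

theorem finite_twoJ2 : Finite twoJ2 := by
  haveI : Finite (Subgroup.center twoJ2) := Nat.finite_of_card_ne_zero (by rw [card_center]; norm_num)
  haveI : Finite (twoJ2 ⧸ Subgroup.center twoJ2) :=
    Nat.finite_of_card_ne_zero (α := J2) (by rw [card_J2]; norm_num)
  exact Finite.of_subgroup_quotient (Subgroup.center twoJ2)

end Cfsg.Agent.Lib.HallJanko
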