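import Cfsg.Agent.Lib.HallJanko.OuterChecks
import Cfsg.Agent.Lib.HallJanko.MultData

/-! # Kernel checks for the multiplier of `J₂` -/

set_option autoImplicit false
set_option maxRecDepth 1000000
set_option Elab.async false

namespace Cfsg.Agent.Lib.HallJanko

open Cfsg.Agent.Lib.SchurMult

/-- The image of an index under a word in a list of transversal indices. -/
def wordAct (gs : List (ℕ × ℕ × ℕ × ℕ)) (w : List ℕ) (i : ℕ) : ℕ :=
  w.foldr (fun a j => comp4' (gs.getD a (0, 0, 0, 0)) j) i

/-- The code of a word: the images of the base. -/
def wordKey (gs : List (ℕ × ℕ × ℕ × ℕ)) (w : List ℕ) : ℕ :=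
  ([0, 1, 2, 3].map fun i => wordAct gs w i <<< (7 * i)).sum

/-- A strictly increasing list. -/
def incr : List ℕ → Bool
  | a :: b :: r => decide (a < b) && incr (b :: r)
  | _ => true

/-- What a certificate needs from the group. -/
def multGroupOK (D : Engine.Data) (gs cs : List (ℕ × ℕ × ℕ × ℕ)) (sorted : List ℕ) : Bool :=
  gs.all inRange4 && cs.all inRange4 && gs.length == D.n &&
  ((List.range D.nv).all fun k => (D.lhsAt k).all (fun i => decide (i < D.n)) &&
    (D.rhsAt k).all (fun i => decide (i < D.n)) &&
    [0, 1, 2, 3].all fun p => wordAct gs (D.lhsAt k) p == wordAct gs (D.rhsAt k) p) &&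
  decide (sorted.length = D.p ^ D.n) && sorted.all (fun k => decide (k < D.p ^ D.n)) &&
  incr (sorted.map fun k => wordKey gs (D.word k)) &&
  D.eqs.all fun e => match e with
    | .cons _ _ => true
    | .fus k x y x' y' =>
      decide (k < cs.length) && (x ++ y ++ x' ++ y').all (fun i => decide (i < D.n)) &&
      [0, 1, 2, 3].all fun p =>
        comp4' (cs.getD k (0, 0, 0, 0)) (wordAct gs x p) == wordAct gs x' (comp4' (cs.getD k (0, 0, 0, 0)) p) &&
        comp4' (cs.getD k (0, 0, 0, 0)) (wordAct gs y p) == wordAct gs y' (comp4' (cs.getD k (0, 0, 0, 0)) p)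

theorem multFive_all : multFive.allOK = true := by decide +kernel

theorem multThree_all : multThree.allOK = true := by decide +kernel

theorem multTwo_all : multTwo.allOK = true := by decide +kernel

theorem multFive_group : multGroupOK multFive multGensFive multConjFive multSortedFive = true := by decide +kernel

theorem multThree_group : multGroupOK multThree multGensThree multConjThree multSortedThree = true := by
  decide +kernel

theorem multTwo_group : multGroupOK multTwo multGensTwo multConjTwo multSortedTwo = true := by decide +kernel

end Cfsg.Agent.Lib.HallJanko
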