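import Cfsg.Agent.Lib.HallJanko.Outer
import Cfsg.Agent.Lib.HallJanko.MultChecks
import Cfsg.Agent.Lib.SchurMult.CyclicBound

/-! # Bounds for the multiplier of `J₂` -/

set_option autoImplicit false
set_option maxRecDepth 100000

namespace Cfsg.Agent.Lib.HallJanko

open Cfsg.Spor Cfsg.Agent.Lib.SchurMult

/-- An element of a list of transversal indices. -/
noncomputable def gAt (gs : List (ℕ × ℕ × ℕ × ℕ)) (i : ℕ) : G100 := wElt (gs.getD i (0, 0, 0, 0))

theorem gAt_val {gs : List (ℕ × ℕ × ℕ × ℕ)} (hgs : gs.all inRange4 = true) {i : ℕ} (hi : i < gs.length)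
    (p : Fin 100) : ((((gAt gs i).1 p) : Fin 100) : ℕ) = comp4' (gs.getD i (0, 0, 0, 0)) p :=
  wElt_val (List.all_eq_true.1 hgs _ (by rw [List.getD_eq_getElem _ _ hi]; exact List.getElem_mem hi)) p

theorem ev_gAt_val {gs : List (ℕ × ℕ × ℕ × ℕ)} (hgs : gs.all inRange4 = true) :
    ∀ (w : List ℕ), (∀ i ∈ w, i < gs.length) → ∀ p : Fin 100,
      ((((Engine.Data.ev (gAt gs) w).1 p) : Fin 100) : ℕ) = wordAct gs w p := by
  intro w
  induction w with
  | nil => intro _ p; rfl
  | cons a w ih =>
    intro hw p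
    rw [show Engine.Data.ev (gAt gs) (a :: w) = gAt gs a * Engine.Data.ev (gAt gs) w from rfl, Subgroup.coe_mul,
      Equiv.Perm.mul_apply, gAt_val hgs (hw a (List.mem_cons_self ..)),
      ih (fun q hq => hw q (List.mem_cons_of_mem _ hq))]
    rfl

theorem pairwise_of_incr : ∀ l, incr l = true → l.Pairwise (· < ·)
  | [], _ => List.Pairwise.nil
  | [a], _ => List.pairwise_singleton _ a
  | a :: b :: r, h => by
    simp only [incr, Bool.and_eq_true, decide_eq_true_eq] at h
    have ih := pairwise_of_incr (b :: r) h.2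
    refine List.pairwise_cons.2 ⟨fun c hc => ?_, ih⟩
    rcases List.mem_cons.1 hc with rfl | hc
    · exact h.1
    · exact lt_trans h.1 ((List.pairwise_cons.1 ih).1 c hc)

theorem mult_bound {D : Engine.Data} {gs cs : List (ℕ × ℕ × ℕ × ℕ)} {sorted : List ℕ} {Γ : Type} [Group Γ]
    [Finite Γ] {σ : Γ →* G100} (hσ : Cfsg.IsStemExtension σ) {p : ℕ} [Fact p.Prime] (hp : D.p = p)
    (hall : D.allOK = true) (hg : multGroupOK D gs cs sorted = true)
    (hcard : (Nat.card G100).factorization p = D.n) {k : ℕ} (hk : p ^ k ∣ Nat.card σ.ker) :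
    p ^ k ∣ D.bound := by
  simp only [multGroupOK, Bool.and_eq_true, beq_iff_eq, decide_eq_true_eq] at hg
  obtain ⟨⟨⟨⟨⟨⟨⟨hgs, hcs⟩, hlen⟩, hrel⟩, hslen⟩, hlt⟩, hinc⟩, heq⟩ := hg
  simp only [List.all_eq_true, List.mem_range, Bool.and_eq_true, decide_eq_true_eq, beq_iff_eq] at hrel hlt
  rw [List.all_eq_true] at heq
  have hword : ∀ j, ∀ i ∈ D.word j, i < gs.length := fun j i hi => by
    simp only [Engine.Data.word, List.mem_flatMap, List.mem_range] at hi
    obtain ⟨a, ha, hi⟩ := hi
    rw [List.eq_of_mem_replicate hi, hlen]; exact ha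
  refine Engine.bound_main D hσ hp hall (gAt gs) (gAt cs) (fun j hj => ?_) (fun a ha b hb hab => ?_)
    (fun e he => ?_) hcard hk
  · obtain ⟨⟨h1, h2⟩, h3⟩ := hrel j hj
    refine ext_base fun q hq => Fin.ext ?_
    rw [ev_gAt_val hgs _ (fun i hi => hlen ▸ h1 i hi), ev_gAt_val hgs _ (fun i hi => hlen ▸ h2 i hi)]
    exact h3 q hq
  · have hpw := pairwise_of_incr _ hinc
    have hnd : sorted.Nodup := List.Nodup.of_map _ (hpw.imp fun h => h.ne)
    have hperm : ∀ c, c < D.p ^ D.n → c ∈ sorted := by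
      intro c hc
      have hsub : sorted.toFinset ⊆ Finset.range (D.p ^ D.n) := fun x hx =>
        Finset.mem_range.2 (hlt x (List.mem_toFinset.1 hx))
      have := Finset.eq_of_subset_of_card_le hsub (by
        rw [List.toFinset_card_of_nodup hnd, hslen, Finset.card_range])
      rw [← List.mem_toFinset, this, Finset.mem_range]
      exact hc
    have hkey : wordKey gs (D.word a) = wordKey gs (D.word b) := by
      refine congrArg List.sum (List.map_congr_left fun i hi => ?_)
      have e := fun w hw => ev_gAt_val hgs w hw ⟨i, base_lt hi⟩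
      have := e _ (hword a)
      rw [hab, e _ (hword b)] at this
      simp only at this
      rw [this]
    exact List.inj_on_of_nodup_map (hpw.imp fun h => h.ne) (hperm a ha) (hperm b hb) hkey
  · rcases e with ⟨u, v⟩ | ⟨j, x, y, x', y'⟩
    · trivial
    · have h := heq _ he
      simp only [Bool.and_eq_true, List.all_eq_true, decide_eq_true_eq, beq_iff_eq] at h
      obtain ⟨⟨hj, hw⟩, hxy⟩ := h
      have hw' : ∀ i ∈ x ++ y ++ x' ++ y', i < gs.length := fun i hi => hlen ▸ hw i hi
      have hx := fun q => ev_gAt_val hgs x (fun i hi => hw' i (by simp [hi])) q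
      have hy := fun q => ev_gAt_val hgs y (fun i hi => hw' i (by simp [hi])) q
      have hx' := fun q => ev_gAt_val hgs x' (fun i hi => hw' i (by simp [hi])) q
      have hy' := fun q => ev_gAt_val hgs y' (fun i hi => hw' i (by simp [hi])) q
      refine ⟨ext_base fun q hq => Fin.ext ?_, ext_base fun q hq => Fin.ext ?_⟩
      · simp only [Subgroup.coe_mul, Equiv.Perm.mul_apply, gAt_val hcs hj, hx, hx']
        exact (hxy q hq).1
      · simp only [Subgroup.coe_mul, Equiv.Perm.mul_apply, gAt_val hcs hj, hy, hy']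
        exact (hxy q hq).2

theorem factorization_604800 {p e r : ℕ} (hp : p.Prime) (h : 604800 = p ^ e * r) (hr : ¬ p ∣ r) :
    (Nat.card G100).factorization p = e := by
  rw [card_G100, h, Nat.factorization_mul (pow_ne_zero _ hp.ne_zero) (by rintro rfl; simp at h),
    Finsupp.add_apply, Nat.Prime.factorization_pow hp, Nat.factorization_eq_zero_of_not_dvd hr]
  simp

theorem mult_le_two (Δ : Type) [Group Δ] [Finite Δ] (τ : Δ →* G100) (hτ : Cfsg.IsStemExtension τ) :
    Nat.card τ.ker ∣ 2 := by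
  refine (Nat.dvd_iff_prime_pow_dvd_dvd _ _).2 fun r k hr hk => ?_
  haveI := Fact.mk hr
  by_cases h2 : r = 2
  · subst h2
    exact mult_bound (p := 2) hτ rfl multTwo_all multTwo_group
      (factorization_604800 (e := 7) (r := 4725) Nat.prime_two (by norm_num) (by norm_num)) hk
  by_cases h3 : r = 3
  · subst h3
    exact (mult_bound (p := 3) hτ rfl multThree_all multThree_group
      (factorization_604800 (e := 3) (r := 22400) Nat.prime_three (by norm_num) (by norm_num)) hk).trans
      (one_dvd 2)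
  by_cases h5 : r = 5
  · subst h5
    exact (mult_bound (p := 5) hτ rfl multFive_all multFive_group
      (factorization_604800 (e := 2) (r := 24192) Nat.prime_five (by norm_num) (by norm_num)) hk).trans
      (one_dvd 2)
  rcases Nat.eq_zero_or_pos k with rfl | hk0
  · simp
  exfalso
  refine not_dvd_ker_of_sq hτ ?_ ((dvd_pow_self r hk0.ne').trans hk)
  intro hd
  rw [card_G100] at hd
  have hco : Nat.Coprime (r ^ 2) (2 ^ 7 * 3 ^ 3 * 5 ^ 2) :=
    ((((Nat.coprime_primes hr Nat.prime_two).2 h2).pow 2 7).mul_right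
      (((Nat.coprime_primes hr Nat.prime_three).2 h3).pow 2 3)).mul_right
      (((Nat.coprime_primes hr Nat.prime_five).2 h5).pow 2 2)
  have h7 : r ^ 2 ∣ 7 := hco.dvd_of_dvd_mul_left (show r ^ 2 ∣ (2 ^ 7 * 3 ^ 3 * 5 ^ 2) * 7 from hd)
  have : r ^ 2 ≤ 7 := Nat.le_of_dvd (by norm_num) h7
  nlinarith [hr.two_le, Nat.lt_of_le_of_ne hr.two_le (Ne.symm h2)]

end Cfsg.Agent.Lib.HallJanko
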